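import Cfsg.Agent.H738.E83.Cen
import Cfsg.Agent.H65.E8L.Span
import Cfsg.Agent.H65.E8L.Sig

/-!
# The brackets of helper65's vectors `b_1, ..., b_4` (helper738, S5925 box Q)

`ad`, `cenL`, `comL`, `cubeL`: the fields `cen`, `com`, `cube` of `H65.E8L.Data`; `ad_inv` : invariance.
-/

set_option autoImplicit false
set_option maxRecDepth 100000

namespace Cfsg.Agent.H738.E83

open Matrix Cfsg Cfsg.Lie
open Cfsg.Agent.ChevalleyStructure Cfsg.Agent.ChevalleyStructure.JacTab Cfsg.Agent.ChevalleyStructure.JacBridge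
  Cfsg.Agent.ChevalleyStructure.JacDataE8 Cfsg.Agent.ChevalleyStructure.LieAbs
  Cfsg.Agent.ChevalleyStructure.LieAut
open Cfsg.Agent.H64.E83 (L3 mx er vec er_eq)
open Cfsg.Agent.H65.E8L.Eng (spv spv_cons spv_nil)

/-- the basis vector number `k` (roots `< 240`, Cartan part `240, ..., 247`) -/
def eb (k : ℕ) : L3 := fun x => if ky x = k then 1 else 0

theorem eb_ky (x : chevE8.Idx) : eb (ky x) = Pi.single x 1 := by
  funext y
  unfold eb
  by_cases h : y = x
  · subst h; rw [if_pos rfl, Pi.single_eq_same]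
  · rw [if_neg fun h1 => h (key_injective chevE8 h1), Pi.single_eq_of_ne h]

/-- the vector of a list with signs -/
def gb (w : List (ℕ × Bool)) : L3 := (w.map fun l => if l.2 = true then eb l.1 else -eb l.1).sum

theorem gb_cons (l : ℕ × Bool) (w : List (ℕ × Bool)) :
    gb (l :: w) = (if l.2 = true then eb l.1 else -eb l.1) + gb w := by
  unfold gb
  rw [List.map_cons, List.sum_cons]

/-- the indices are in range -/
def okg (w : List (ℕ × Bool)) : Bool := w.all fun l => Nat.blt l.1 248

theorem Sem.awg {S : St} {v : ℕ → ZMod 3} {u : L3} (h : Sem S v u) {w : List (ℕ × Bool)} (hw : okg w = true) :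
    Sem (Cfsg.Agent.H738.E83.aw rows w S) v (br (gb w) u) := by
  induction w with
  | nil =>
    rw [aw_nil]
    have : gb [] = 0 := rfl
    rw [this, br_zero_left]
    exact sem_zero v
  | cons l w ih =>
    unfold okg at hw
    rw [List.all_cons, Bool.and_eq_true] at hw
    have hr : l.1 < 248 := Nat.le_of_ble_eq_true hw.1
    obtain ⟨x, hx⟩ := key_surj chevE8 l.1 (by rw [nr, rk]; exact hr)
    have hx' : ky x = l.1 := hx
    have ih' := ih hw.2
    have h1 := h.brk x
    rw [hx'] at h1
    have h2 : br (eb l.1) u = adR chevE8 (ZMod 3) x *ᵥ u := by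
      rw [← hx', eb_ky]
      unfold br
      rw [adv_single_one]
    rw [aw_cons, gb_cons, br_add_left]
    refine Sem.ad3 ?_ ih'
    by_cases hl : l.2 = true
    · rw [if_pos hl, if_pos hl, h2]; exact h1
    · rw [if_neg hl, if_neg hl, br_neg_left, h2]; exact h1.ng

/-- the code of helper65 in my numbering -/
def cvt (k : ℕ) : ℕ := if k < 8 then 240 + k else k - 8

theorem bv_eb {k : ℕ} (hk : k < 248) : Cfsg.Agent.H65.E8L.Eng.bv k = eb (cvt k) := by
  have hr : chevE8.rank = 8 := rk
  have hn : chevE8.nroots = 240 := nr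
  funext x
  rcases x with i | s
  · have hi : i.val < 8 := by have := i.isLt; omega
    show (if i.val = k then (1 : ZMod 3) else 0) = if chevE8.nroots + i.val = cvt k then 1 else 0
    rw [hn]
    unfold cvt
    by_cases h8 : k < 8
    · rw [if_pos h8]
      by_cases h : i.val = k
      · rw [if_pos h, if_pos (by omega)]
      · rw [if_neg h, if_neg (by omega)]
    · rw [if_neg h8, if_neg (by omega), if_neg (by omega)]
  · have hs : s.val < 240 := by have := s.isLt; omega
    show (if chevE8.rank + s.val = k then (1 : ZMod 3) else 0) = if s.val = cvt k then 1 else 0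
    rw [hr]
    unfold cvt
    by_cases h8 : k < 8
    · rw [if_pos h8, if_neg (by omega), if_neg (by omega)]
    · rw [if_neg h8]
      by_cases h : 8 + s.val = k
      · rw [if_pos h, if_pos (by omega)]
      · rw [if_neg h, if_neg (by omega)]

/-- the list in my form -/
def cl (l : List (ℕ × ℕ)) : List (ℕ × Bool) := l.map fun a => (cvt a.1, Nat.beq a.2 1)

/-- the entries are 1 or 2 -/
def okc (l : List (ℕ × ℕ)) : Bool := l.all fun a => Nat.blt a.1 248 && (Nat.beq a.2 1 || Nat.beq a.2 2)

theorem spv_gb {l : List (ℕ × ℕ)} (h : okc l = true) : spv l = gb (cl l) := by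
  induction l with
  | nil => rfl
  | cons a l ih =>
    unfold okc at h
    rw [List.all_cons, Bool.and_eq_true, Bool.and_eq_true, Bool.or_eq_true] at h
    obtain ⟨⟨h1, h2⟩, h3⟩ := h
    have e : cl (a :: l) = (cvt a.1, Nat.beq a.2 1) :: cl l := rfl
    rw [e, gb_cons, spv_cons, ih h3, bv_eb (Nat.le_of_ble_eq_true h1)]
    congr 1
    rcases h2 with h2 | h2
    · have h4 := Nat.eq_of_beq_eq_true h2
      simp only [h4]
      rw [if_pos (by decide), Nat.cast_one, one_smul]
    · have h4 := Nat.eq_of_beq_eq_true h2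
      simp only [h4]
      rw [if_neg (by decide)]
      have : ((2 : ℕ) : ZMod 3) = -1 := rfl
      rw [this, neg_smul, one_smul]

/-- the four lists -/
def wb (i : Fin 4) : List (ℕ × Bool) := cl (Cfsg.Agent.H65.E8L.Dat.bl.getD i.val [])

theorem b_eq (i : Fin 4) : Cfsg.Agent.H65.E8L.Span.b i = gb (wb i) := by
  have h : ∀ i : Fin 4, okc (Cfsg.Agent.H65.E8L.Dat.bl.getD i.val []) = true := by decide +kernel
  exact spv_gb (h i)

theorem wb_ok : ∀ i, okg (wb i) = true := by decide +kernel

/-- two states are equal -/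
def seq (S T : St) : Bool := isz (ad3 S (ng T))

theorem Sem.eq_of {S T : St} {v : ℕ → ZMod 3} {u w : L3} (h : Sem S v u) (h' : Sem T v w) (e : seq S T = true) :
    u = w := by
  have h1 := (h.ad3 h'.ng).eq_zero e
  exact sub_eq_zero.1 (by rw [sub_eq_add_neg]; exact h1)

/-- the cube check -/
def chCu (i : Fin 4) : Bool :=
  match idN 248 with
  | (p, n) => seq (aw rows (wb i) (aw rows (wb i) (aw rows (wb i) (p, n)))) (aw rows (wb (Cfsg.Agent.H65.E8L.cc i)) (p, n))

theorem chCu0 : chCu 0 = true := by decide +kernel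
theorem chCu1 : chCu 1 = true := by decide +kernel
theorem chCu2 : chCu 2 = true := by decide +kernel
theorem chCu3 : chCu 3 = true := by decide +kernel

theorem cube_b (i : Fin 4) (u : L3) : br (Cfsg.Agent.H65.E8L.Span.b i) (br (Cfsg.Agent.H65.E8L.Span.b i)
    (br (Cfsg.Agent.H65.E8L.Span.b i) u)) = br (Cfsg.Agent.H65.E8L.Span.b (Cfsg.Agent.H65.E8L.cc i)) u := by
  rw [b_eq, b_eq]
  have hi : chCu i = true := by
    fin_cases i
    · exact chCu0
    · exact chCu1
    · exact chCu2
    · exact chCu3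
  exact ((((sem_id u).awg (wb_ok i)).awg (wb_ok i)).awg (wb_ok i)).eq_of ((sem_id u).awg (wb_ok _)) hi

/-- the commutator check -/
def chCo (i j : Fin 4) : Bool :=
  match idN 248 with
  | (p, n) => seq (aw rows (wb i) (aw rows (wb j) (p, n))) (aw rows (wb j) (aw rows (wb i) (p, n)))

theorem chCo01 : chCo 0 1 = true := by decide +kernel
theorem chCo02 : chCo 0 2 = true := by decide +kernel
theorem chCo03 : chCo 0 3 = true := by decide +kernel
theorem chCo12 : chCo 1 2 = true := by decide +kernel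
theorem chCo13 : chCo 1 3 = true := by decide +kernel
theorem chCo23 : chCo 2 3 = true := by decide +kernel

theorem com_of {i j : Fin 4} (h : chCo i j = true) (u : L3) :
    br (Cfsg.Agent.H65.E8L.Span.b i) (br (Cfsg.Agent.H65.E8L.Span.b j) u) =
      br (Cfsg.Agent.H65.E8L.Span.b j) (br (Cfsg.Agent.H65.E8L.Span.b i) u) := by
  rw [b_eq, b_eq]
  exact (((sem_id u).awg (wb_ok j)).awg (wb_ok i)).eq_of (((sem_id u).awg (wb_ok i)).awg (wb_ok j)) h

theorem com_b (i j : Fin 4) (u : L3) :
    br (Cfsg.Agent.H65.E8L.Span.b i) (br (Cfsg.Agent.H65.E8L.Span.b j) u) =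
      br (Cfsg.Agent.H65.E8L.Span.b j) (br (Cfsg.Agent.H65.E8L.Span.b i) u) := by
  fin_cases i <;> fin_cases j
  · rfl
  · exact com_of chCo01 u
  · exact com_of chCo02 u
  · exact com_of chCo03 u
  · exact (com_of chCo01 u).symm
  · rfl
  · exact com_of chCo12 u
  · exact com_of chCo13 u
  · exact (com_of chCo02 u).symm
  · exact (com_of chCo12 u).symm
  · rfl
  · exact com_of chCo23 u
  · exact (com_of chCo03 u).symm
  · exact (com_of chCo13 u).symm
  · exact (com_of chCo23 u).symm
  · rfl

/-- the adjoint map -/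
noncomputable def ad : L3 →ₗ[ZMod 3] Module.End (ZMod 3) L3 :=
  LinearMap.mk₂ (ZMod 3) br br_add_left br_smul_left br_add_right (fun c v w => br_smul_right c v w)

theorem ad_apply (u v : L3) : ad u v = br u v := rfl

theorem ad_inv (g : ↥(chevE8.group (ZMod 3))) (u v : L3) : mx g *ᵥ ad u v = ad (mx g *ᵥ u) (mx g *ᵥ v) := mx_br g u v

/-- the field `cen` -/
theorem cenL (u : L3) (h : ad u = 0) : u = 0 := cen fun w => by rw [← ad_apply, h]; rfl

/-- the field `com` -/
theorem comL (i j : Fin 4) : Commute (ad (Cfsg.Agent.H65.E8L.Span.b i)) (ad (Cfsg.Agent.H65.E8L.Span.b j)) :=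
  LinearMap.ext fun u => com_b i j u

/-- the field `cube` -/
theorem cubeL (i : Fin 4) : ad (Cfsg.Agent.H65.E8L.Span.b i) ^ 3 =
    ad (Cfsg.Agent.H65.E8L.Span.b (Cfsg.Agent.H65.E8L.cc i)) := by
  refine LinearMap.ext fun u => ?_
  have h := cube_b i u
  rw [pow_succ, pow_two]
  exact h

end Cfsg.Agent.H738.E83
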